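import Cfsg.Agent.Lib.Fischer.ThompsonOrbit.Basic

/-!
A subgroup that is the only one of its conjugates in each 2-subgroup containing it: fusion of its
subsets is controlled by the normalizer.
-/

set_option autoImplicit false

namespace CfsgLib.Fischer.ThompsonOrbit

variable {G : Type*} [Group G] [Finite G]

/-- Two conjugates of `A` inside a common 2-subgroup are equal. -/
def UniqueInTwoGroups (A : Subgroup G) : Prop :=
  ∀ (T : Sylow 2 G) (g h : G), A.map (MulAut.conj g).toMonoidHom ≤ T → A.map (MulAut.conj h).toMonoidHom ≤ T →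
    A.map (MulAut.conj g).toMonoidHom = A.map (MulAut.conj h).toMonoidHom

theorem map_conj_conj (A : Subgroup G) (g h : G) :
    (A.map (MulAut.conj g).toMonoidHom).map (MulAut.conj h).toMonoidHom = A.map (MulAut.conj (h * g)).toMonoidHom := by
  rw [Subgroup.map_map]
  congr 1
  ext x
  simp [mul_assoc]

theorem map_conj_one (A : Subgroup G) : A.map (MulAut.conj (1 : G)).toMonoidHom = A := by
  ext x
  simp

theorem mem_normalizer_of_map_eq {A : Subgroup G} {n : G} (h : A.map (MulAut.conj n).toMonoidHom = A) :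
    n ∈ Subgroup.normalizer (A : Set G) := by
  refine Subgroup.mem_normalizer_iff.2 fun y => ?_
  conv_rhs => rw [← h, Subgroup.mem_map_equiv]
  simp [mul_assoc]

theorem map_eq_of_mem_normalizer {A : Subgroup G} {n : G} (h : n ∈ Subgroup.normalizer (A : Set G)) :
    A.map (MulAut.conj n).toMonoidHom = A := by
  ext y
  rw [Subgroup.mem_map_equiv, Subgroup.mem_normalizer_iff.1 h]
  simp [mul_assoc]

/-- A conjugation carrying a subset of `A` into `A` is done by the normalizer. -/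
theorem exists_normalizer_of_fusion {A : Subgroup G} (hcom : IsMulCommutative A) (hp : IsPGroup 2 A)
    (hu : UniqueInTwoGroups A) {g : G} {S : Set G} (hS : S ⊆ A) (hgS : ∀ x ∈ S, g * x * g⁻¹ ∈ A) :
    ∃ n ∈ Subgroup.normalizer (A : Set G), ∀ x ∈ S, n * x * n⁻¹ = g * x * g⁻¹ := by
  classical
  let K : Subgroup G := Subgroup.centralizer ((fun x => g * x * g⁻¹) '' S)
  have hcA : ∀ a ∈ A, ∀ b ∈ A, a * b = b * a := fun a ha b hb =>
    congrArg Subtype.val (hcom.1.comm ⟨a, ha⟩ ⟨b, hb⟩)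
  let B : Subgroup G := A.map (MulAut.conj g).toMonoidHom
  have hAK : A ≤ K := fun a ha => Subgroup.mem_centralizer_iff.2 (by
    rintro _ ⟨x, hx, rfl⟩
    exact hcA _ (hgS x hx) a ha)
  have hBK : B ≤ K := by
    rintro _ ⟨a, ha, rfl⟩
    refine Subgroup.mem_centralizer_iff.2 ?_
    rintro _ ⟨x, hx, rfl⟩
    show MulAut.conj g x * MulAut.conj g a = MulAut.conj g a * MulAut.conj g x
    rw [← map_mul, ← map_mul, hcA x (hS hx) a ha]
  obtain ⟨P, hP⟩ := (hp.of_equiv (Subgroup.subgroupOfEquivOfLe hAK).symm).exists_le_sylow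
  obtain ⟨Q, hQ⟩ := ((hp.map (MulAut.conj g).toMonoidHom).of_equiv
    (Subgroup.subgroupOfEquivOfLe hBK).symm).exists_le_sylow
  obtain ⟨k, hk⟩ := MulAction.exists_smul_eq K Q P
  obtain ⟨T, hT⟩ := (P.isPGroup'.map K.subtype).exists_le_sylow
  have h1 : A.map (MulAut.conj (1 : G)).toMonoidHom ≤ T := by
    rw [map_conj_one]
    exact fun a ha => hT ⟨⟨a, hAK ha⟩, hP ha, rfl⟩
  have h2 : A.map (MulAut.conj ((k : G) * g)).toMonoidHom ≤ T := by
    rw [← map_conj_conj]
    rintro _ ⟨b, hb, rfl⟩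
    refine hT ⟨MulAut.conj k ⟨b, hBK hb⟩, ?_, by simp⟩
    rw [← hk]
    exact Subgroup.smul_mem_pointwise_smul _ _ _ (hQ hb)
  refine ⟨(k : G) * g, mem_normalizer_of_map_eq ((hu T _ _ h2 h1).trans (map_conj_one A)), fun x hx => ?_⟩
  have := Subgroup.mem_centralizer_iff.1 k.2 _ ⟨x, hx, rfl⟩
  calc (k : G) * g * x * ((k : G) * g)⁻¹ = (k : G) * (g * x * g⁻¹) * (k : G)⁻¹ := by group
    _ = g * x * g⁻¹ := by rw [← this, mul_inv_cancel_right]

end CfsgLib.Fischer.ThompsonOrbit
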