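import Cfsg.Agent.Lib.Fischer.ThompsonOrbit.Basic

/-!
An elementary abelian subgroup of order `2^11` in which the conjugates of `d` form a union of five
prescribed sets: exactly twenty-three of them lie in it.
-/

set_option autoImplicit false

namespace CfsgLib.Fischer.ThompsonOrbit

/-- A prime dividing the order of a faithful group of automorphisms of a group of order `2^n`
divides some `2^j - 1` with `0 < j ≤ n`. -/
theorem false_of_prime {M A : Type*} [Group M] [Finite M] [Group A] [Finite A] (φ : M →* MulAut A)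
    (hφ : Function.Injective φ) {n p : ℕ} [hp : Fact p.Prime] (hp2 : p ≠ 2) (hA : Nat.card A = 2 ^ n)
    (hord : ∀ j ≤ n, 0 < j → ¬ p ∣ 2 ^ j - 1) (hdvd : p ∣ Nat.card M) : False := by
  obtain ⟨m, hm⟩ := exists_prime_orderOf_dvd_card' p hdvd
  have hPp : IsPGroup p (Subgroup.zpowers m) := IsPGroup.of_card (n := 1) (by rw [Nat.card_zpowers, hm, pow_one])
  let act : MulAction (Subgroup.zpowers m) A :=
    { smul := fun g a => φ g a
      one_smul := fun a => by
        show φ ((1 : Subgroup.zpowers m) : M) a = a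
        simp
      mul_smul := fun g k a => by
        show φ ((g * k : Subgroup.zpowers m) : M) a = φ g (φ k a)
        simp }
  let _ := act
  let F : Subgroup A :=
    { carrier := {a | φ m a = a}
      one_mem' := map_one _
      mul_mem' := fun {a b} ha hb => by
        show φ m (a * b) = a * b
        rw [map_mul, show φ m a = a from ha, show φ m b = b from hb]
      inv_mem' := fun {a} ha => by
        show φ m a⁻¹ = a⁻¹
        rw [map_inv, show φ m a = a from ha] }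
  have hfix : Nat.card (MulAction.fixedPoints (Subgroup.zpowers m) A) = Nat.card F := Nat.card_congr
    { toFun := fun a => ⟨a.1, a.2 ⟨m, Subgroup.mem_zpowers m⟩⟩
      invFun := fun a => ⟨a.1, fun g => by
        obtain ⟨⟨g, hg⟩, rfl⟩ : ∃ g' : Subgroup.zpowers m, g' = g := ⟨g, rfl⟩
        show φ g (a : A) = a
        have hle : Subgroup.zpowers m ≤ (MulAction.stabilizer (MulAut A) (a : A)).comap φ :=
          Subgroup.zpowers_le.2 (show φ m • (a : A) = a from a.2)
        exact hle hg⟩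
      left_inv := fun a => rfl
      right_inv := fun a => rfl }
  have h := hPp.card_modEq_card_fixedPoints A
  rw [hfix, hA] at h
  obtain ⟨i, hi, hFi⟩ := (Nat.dvd_prime_pow Nat.prime_two).1 (hA ▸ Subgroup.card_subgroup_dvd_card F)
  rw [hFi] at h
  obtain ⟨k, rfl⟩ := Nat.exists_eq_add_of_le hi
  rcases Nat.eq_zero_or_pos k with hk | hk
  · subst hk
    have htop : F = ⊤ := Subgroup.eq_top_of_card_eq _ (by rw [hFi, hA]; rfl)
    have h1 : m = 1 := hφ ((MulEquiv.ext fun a => by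
      rw [map_one, MulAut.one_apply]; exact (htop ▸ Subgroup.mem_top a : a ∈ F)) : φ m = φ 1)
    rw [h1, orderOf_one] at hm
    exact hp.out.ne_one hm.symm
  · have h' := (Nat.modEq_iff_dvd' (Nat.pow_le_pow_right (by norm_num) (by omega))).1 h.symm
    rw [pow_add, show 2 ^ i * 2 ^ k - 2 ^ i = 2 ^ i * (2 ^ k - 1) by rw [Nat.mul_sub, mul_one]] at h'
    rcases hp.out.dvd_mul.1 h' with h'' | h''
    · exact hp2 ((Nat.prime_dvd_prime_iff_eq hp.out Nat.prime_two).1 (hp.out.dvd_of_dvd_pow h''))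
    · exact hord k (by omega) hk h''

variable {G : Type*} [Group G] [Finite G]

/-- The data of the count. -/
structure CountData (d : G) (A : Subgroup G) where
  elem : Cfsg.IsElementaryAbelian 2 A
  card : Nat.card A = 2 ^ 11
  mem : d ∈ A
  ne : d ≠ 1
  E : Set G
  E' : Set G
  X : Set G
  X' : Set G
  T : Set G
  sub : ∀ x ∈ E ∪ E' ∪ X ∪ X' ∪ T, x ∈ A ∧ x ≠ 1 ∧ x ≠ d
  cover : ∀ x ∈ A, x ≠ 1 → x ≠ d → x ∈ E ∪ E' ∪ X ∪ X' ∪ T
  cardE : E.ncard = 22
  cardE' : E'.ncard = 22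
  cardX : X.ncard = 231
  cardX' : X'.ncard = 231
  cardT : T.ncard = 1540
  disj : List.Pairwise Disjoint [E, E', X, X', T]
  class_ : ∀ S ∈ [E, E', X, X', T], ∀ x ∈ S, ∀ y ∈ S, IsConj x y
  dE : ∀ x ∈ E, d * x ∈ E'
  dE' : ∀ x ∈ E', d * x ∈ E
  dX : ∀ x ∈ X, d * x ∈ X'
  dX' : ∀ x ∈ X', d * x ∈ X
  spanE : d ∈ Subgroup.closure E
  spanE' : d ∈ Subgroup.closure E'
  triX : ∃ p ∈ X, ∃ q ∈ X, p ≠ q ∧ p * q ∈ X
  triX' : ∃ p ∈ X', ∃ q ∈ X', p ≠ q ∧ p * q ∈ X'

theorem exists_count_cases (a b c e f : ℕ) (ha : a = 0 ∨ a = 22) (hb : b = 0 ∨ b = 22) (hc : c = 0 ∨ c = 231)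
    (he : e = 0 ∨ e = 231) (hf : f = 0 ∨ f = 1540) (hne : a + b + c + e + f ≠ 0) :
    1 + a + b + c + e + f = 23 ∨ 1 + a + b + c + e + f = 45 ∨ 1 + a + b + c + e + f = 254 ∨
      1 + a + b + c + e + f = 2025 ∨
      (∃ p ∈ [29, 463, 97, 13, 67, 521, 317, 443, 227, 2003], p ∣ (1 + a + b + c + e + f)) ∨
      1 + a + b + c + e + f = 276 ∨ 1 + a + b + c + e + f = 2047 := by
  rcases ha with rfl | rfl <;> rcases hb with rfl | rfl <;> rcases hc with rfl | rfl <;> rcases he with rfl | rfl <;>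
    rcases hf with rfl | rfl <;> first | exact absurd rfl hne | decide +kernel

theorem prime_facts : ∀ p ∈ [29, 463, 97, 13, 67, 521, 317, 443, 227, 2003], Nat.Prime p ∧ p ≠ 2 ∧
    ∀ j ≤ 11, 0 < j → ¬ p ∣ 2 ^ j - 1 := by
  intro p hp
  simp only [List.mem_cons, List.not_mem_nil, or_false] at hp
  rcases hp with rfl | rfl | rfl | rfl | rfl | rfl | rfl | rfl | rfl | rfl <;>
    exact ⟨by norm_num, by norm_num, by intro j hj; interval_cases j <;> norm_num⟩

theorem sylow_facts : ∀ j ≤ 3,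
    (¬ 23 ∣ 12 * (147840 * 3 ^ j) ∧ ∀ k ∈ Nat.divisors ((2 ^ 11 - 1) / 23 * (23 - 1)),
      k ∣ 12 * (147840 * 3 ^ j) → (12 * (147840 * 3 ^ j) / k) % 23 ≠ 1) ∧
    ((¬ 89 ∣ 23 * (147840 * 3 ^ j) ∧ ∀ k ∈ Nat.divisors ((2 ^ 11 - 1) / 89 * (89 - 1)),
      k ∣ 23 * (147840 * 3 ^ j) → (23 * (147840 * 3 ^ j) / k) % 89 ≠ 1) ∨
    (¬ 23 ∣ 89 * (147840 * 3 ^ j) ∧ ∀ k ∈ Nat.divisors ((2 ^ 11 - 1) / 23 * (23 - 1)),
      k ∣ 89 * (147840 * 3 ^ j) → (89 * (147840 * 3 ^ j) / k) % 23 ≠ 1)) := by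
  decide +kernel

variable {d : G} {A : Subgroup G} (D : CountData d A)
  (hmax : ∀ E : Subgroup G, Cfsg.IsElementaryAbelian 2 E → E ≤ Subgroup.centralizer ({d} : Set G) →
    Nat.card A ≤ Nat.card E → ∃ c ∈ Subgroup.centralizer ({d} : Set G), E = A.map (MulAut.conj c).toMonoidHom)

include D hmax

set_option maxHeartbeats 1000000 in
/-- Exactly twenty-three conjugates of `d` lie in `A`. -/
theorem CountData.ncard_eq {j : ℕ} (hj : j ≤ 3)
    (hidx : Nat.card ↥(Subgroup.normalizer (A : Set G) ⊓ Subgroup.centralizer ({d} : Set G)) =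
      147840 * 3 ^ j * Nat.card (Subgroup.centralizer (A : Set G)))
    (hnwc : ∃ x ∈ A, x ≠ d ∧ IsConj d x) : Set.ncard {x : G | x ∈ A ∧ IsConj d x} = 23 := by
  classical
  set Ω := {x : G | x ∈ A ∧ IsConj d x} with hΩ
  have hmove : ∀ y ∈ Ω, ∃ n ∈ Subgroup.normalizer (A : Set G), n * d * n⁻¹ = y := fun y hy =>
    exists_normalizer_move D.elem hmax hy.1 hy.2
  have hinv : ∀ n ∈ Subgroup.normalizer (A : Set G), ∀ x ∈ Ω, n * x * n⁻¹ ∈ Ω := fun n hn x hx =>
    ⟨(Subgroup.mem_normalizer_iff.1 hn x).1 hx.1, hx.2.trans (isConj_iff.2 ⟨n, rfl⟩)⟩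
  have hinv' : ∀ n ∈ Subgroup.normalizer (A : Set G), ∀ x, n * x * n⁻¹ ∈ Ω → x ∈ Ω := fun n hn x hx => by
    have := hinv n⁻¹ (inv_mem hn) _ hx
    rwa [show n⁻¹ * (n * x * n⁻¹) * n⁻¹⁻¹ = x by group] at this
  have h1 : (1 : G) ∉ Ω := fun h => D.ne ((isConj_one_left.1 h.2))
  have hdΩ : d ∈ Ω := ⟨D.mem, IsConj.refl d⟩
  have hsq : ∀ x ∈ A, x * x = 1 := fun x hx => by rw [← pow_two]; exact D.elem.2 x hx
  -- each of the five sets is inside or outside
  have hdich : ∀ S ∈ [D.E, D.E', D.X, D.X', D.T], S ⊆ A → S ⊆ Ω ∨ Disjoint Ω S := fun S hS hSA => by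
    by_cases h : Disjoint Ω S
    · exact Or.inr h
    · obtain ⟨x, hx, hxS⟩ := Set.not_disjoint_iff.1 h
      exact Or.inl fun y hy => ⟨hSA hy, hx.2.trans (D.class_ S hS x hxS y hy)⟩
  have hsubA : ∀ S ∈ [D.E, D.E', D.X, D.X', D.T], S ⊆ (A : Set G) := fun S hS x hx =>
    (D.sub x (by simp only [List.mem_cons, List.not_mem_nil, or_false] at hS; rcases hS with rfl | rfl | rfl | rfl | rfl <;> simp [hx])).1
  have hval : ∀ S ∈ [D.E, D.E', D.X, D.X', D.T], (S ⊆ Ω ∧ (Ω ∩ S).ncard = S.ncard) ∨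
      (Disjoint Ω S ∧ (Ω ∩ S).ncard = 0) := fun S hS => by
    rcases hdich S hS (hsubA S hS) with h | h
    · exact Or.inl ⟨h, by rw [Set.inter_eq_right.2 h]⟩
    · exact Or.inr ⟨h, by rw [Set.disjoint_iff_inter_eq_empty.1 h, Set.ncard_empty]⟩
  have hsplit : Ω = insert d (((((Ω ∩ D.E) ∪ (Ω ∩ D.E')) ∪ (Ω ∩ D.X)) ∪ (Ω ∩ D.X')) ∪ (Ω ∩ D.T)) := by
    ext x
    simp only [Set.mem_insert_iff, Set.mem_union, Set.mem_inter_iff]
    constructor
    · intro hx
      by_cases hxd : x = d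
      · exact Or.inl hxd
      · have := D.cover x hx.1 (fun h => h1 (h ▸ hx)) hxd
        simp only [Set.mem_union] at this
        tauto
    · rintro (rfl | ((((⟨h, -⟩ | ⟨h, -⟩) | ⟨h, -⟩) | ⟨h, -⟩) | ⟨h, -⟩)) <;> assumption
  have hdis := D.disj
  simp only [List.pairwise_cons, List.mem_cons, List.not_mem_nil, or_false, forall_eq_or_imp, forall_eq] at hdis
  obtain ⟨⟨dEE', dEX, dEX', dET⟩, ⟨dE'X, dE'X', dE'T⟩, ⟨dXX', dXT⟩, dX'T, -⟩ := hdis
  have hi : ∀ {S S' : Set G}, Disjoint S S' → Disjoint (Ω ∩ S) (Ω ∩ S') := fun h =>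
    h.mono Set.inter_subset_right Set.inter_subset_right
  have hcount : Ω.ncard = 1 + (Ω ∩ D.E).ncard + (Ω ∩ D.E').ncard + (Ω ∩ D.X).ncard + (Ω ∩ D.X').ncard +
      (Ω ∩ D.T).ncard := by
    conv_lhs => rw [hsplit]
    rw [Set.ncard_insert_of_notMem, Set.ncard_union_eq, Set.ncard_union_eq, Set.ncard_union_eq, Set.ncard_union_eq]
    · ring
    · exact hi dEE'
    · exact Set.disjoint_union_left.2 ⟨hi dEX, hi dE'X⟩
    · exact Set.disjoint_union_left.2 ⟨Set.disjoint_union_left.2 ⟨hi dEX', hi dE'X'⟩, hi dXX'⟩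
    · exact Set.disjoint_union_left.2 ⟨Set.disjoint_union_left.2 ⟨Set.disjoint_union_left.2 ⟨hi dET, hi dE'T⟩,
        hi dXT⟩, hi dX'T⟩
    · intro h
      simp only [Set.mem_union, Set.mem_inter_iff] at h
      exact ((D.sub d (by simp only [Set.mem_union]; tauto)).2.2) rfl
  -- products of distinct conjugates
  have htransfer : ∀ (P : Prop), (∀ x ∈ Ω, x ≠ d → (d * x ∈ Ω ↔ P)) →
      ∀ x ∈ Ω, ∀ y ∈ Ω, x ≠ y → (x * y ∈ Ω ↔ P) := by
    intro P h x hx y hy hxy
    obtain ⟨n, hn, rfl⟩ := hmove x hx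
    have hy' : n⁻¹ * y * n ∈ Ω := by
      have := hinv n⁻¹ (inv_mem hn) y hy
      rwa [inv_inv] at this
    rw [← h _ hy' (fun e => hxy (by rw [← e]; group))]
    constructor
    · intro hk
      refine hinv' n hn _ ?_
      rwa [show n * (d * (n⁻¹ * y * n)) * n⁻¹ = n * d * n⁻¹ * y by group]
    · intro hk
      have := hinv n hn _ hk
      rwa [show n * (d * (n⁻¹ * y * n)) * n⁻¹ = n * d * n⁻¹ * y by group] at this
  -- the group of automorphisms induced
  let φ := Subgroup.normalizerMonoidHom A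
  have hM : Nat.card φ.range = Ω.ncard * (147840 * 3 ^ j) := by
    have hker : Nat.card φ.ker = Nat.card (Subgroup.centralizer (A : Set G)) := by
      rw [Subgroup.normalizerMonoidHom_ker]
      exact Nat.card_congr (Subgroup.subgroupOfEquivOfLe (Subgroup.centralizer_le_normalizer _)).toEquiv
    let act : MulAction (Subgroup.normalizer (A : Set G)) Ω :=
      { smul := fun n x => ⟨(n : G) * x * (n : G)⁻¹, hinv n n.2 x x.2⟩
        one_smul := fun x => Subtype.ext (by
          show ((1 : (Subgroup.normalizer (A : Set G))) : G) * (x : G) * ((1 : (Subgroup.normalizer (A : Set G))) : G)⁻¹ = x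
          simp)
        mul_smul := fun n m x => Subtype.ext (by
          show ((n * m : (Subgroup.normalizer (A : Set G))) : G) * (x : G) * ((n * m : (Subgroup.normalizer (A : Set G))) : G)⁻¹ =
            (n : G) * ((m : G) * x * (m : G)⁻¹) * (n : G)⁻¹
          simp [mul_assoc]) }
    let _ := act
    have : MulAction.IsPretransitive (Subgroup.normalizer (A : Set G)) Ω := ⟨fun x y => by
      obtain ⟨n, hn, hnx⟩ := hmove x x.2
      obtain ⟨m, hm, hmy⟩ := hmove y y.2
      refine ⟨⟨m * n⁻¹, mul_mem hm (inv_mem hn)⟩, Subtype.ext ?_⟩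
      show m * n⁻¹ * (x : G) * (m * n⁻¹)⁻¹ = y
      rw [← hnx, ← hmy]; group⟩
    have hst : Nat.card (MulAction.stabilizer (Subgroup.normalizer (A : Set G)) (⟨d, hdΩ⟩ : Ω)) =
        Nat.card ↥((Subgroup.normalizer (A : Set G)) ⊓ Subgroup.centralizer ({d} : Set G)) := Nat.card_congr
      { toFun := fun n => ⟨n.1.1, n.1.2, Subgroup.mem_centralizer_singleton_iff.2
          (mul_inv_eq_iff_eq_mul.1 (congrArg Subtype.val n.2))⟩
        invFun := fun n => ⟨⟨n.1, n.2.1⟩, Subtype.ext (mul_inv_eq_iff_eq_mul.2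
          (Subgroup.mem_centralizer_singleton_iff.1 n.2.2))⟩
        left_inv := fun n => rfl
        right_inv := fun n => rfl }
    have h := (MulAction.stabilizer (Subgroup.normalizer (A : Set G)) (⟨d, hdΩ⟩ : Ω)).card_mul_index
    rw [MulAction.index_stabilizer_of_transitive, hst, hidx, Nat.card_coe_set_eq] at h
    have h2 := Subgroup.card_eq_card_quotient_mul_card_subgroup φ.ker
    rw [Nat.card_congr (QuotientGroup.quotientKerEquivRange φ).toEquiv, hker] at h2
    refine Nat.eq_of_mul_eq_mul_right (m := Nat.card (Subgroup.centralizer (A : Set G))) Nat.card_pos ?_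
    rw [← h2, ← h]; ring
  have hsA : Nat.card A = 2 ^ 11 := D.card
  have vE := hval D.E (by simp)
  have vE' := hval D.E' (by simp)
  have vX := hval D.X (by simp)
  have vX' := hval D.X' (by simp)
  have vT := hval D.T (by simp)
  rw [D.cardE] at vE; rw [D.cardE'] at vE'; rw [D.cardX] at vX; rw [D.cardX'] at vX'; rw [D.cardT] at vT
  have hne : (Ω ∩ D.E).ncard + (Ω ∩ D.E').ncard + (Ω ∩ D.X).ncard + (Ω ∩ D.X').ncard + (Ω ∩ D.T).ncard ≠ 0 := by
    intro h0
    obtain ⟨x, hxA, hxd, hx⟩ := hnwc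
    have h2 : 1 < Ω.ncard := (Set.one_lt_ncard_iff (Set.toFinite _)).2 ⟨d, x, hdΩ, ⟨hxA, hx⟩, hxd.symm⟩
    omega
  rcases exists_count_cases _ _ _ _ _ (vE.symm.imp And.right And.right) (vE'.symm.imp And.right And.right)
    (vX.symm.imp And.right And.right) (vX'.symm.imp And.right And.right) (vT.symm.imp And.right And.right)
    hne with h | h | h | h | ⟨p, hp, hdvd⟩ | h | h
  · omega
  · -- closed under products
    exfalso
    obtain ⟨hE1, hE2, nX, nX', nT⟩ : D.E ⊆ Ω ∧ D.E' ⊆ Ω ∧ Disjoint Ω D.X ∧ Disjoint Ω D.X' ∧ Disjoint Ω D.T :=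
      ⟨vE.elim And.left fun k => absurd k.2 (by omega), vE'.elim And.left fun k => absurd k.2 (by omega),
        vX.elim (fun k => absurd k.2 (by omega)) And.left, vX'.elim (fun k => absurd k.2 (by omega)) And.left,
        vT.elim (fun k => absurd k.2 (by omega)) And.left⟩
    have hd : ∀ x ∈ Ω, x ≠ d → (d * x ∈ Ω ↔ True) := fun x hx hxd => iff_true_intro (by
      have := D.cover x hx.1 (fun e => h1 (e ▸ hx)) hxd
      simp only [Set.mem_union] at this
      rcases this with (((k | k) | k) | k) | k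
      · exact hE2 (D.dE x k)
      · exact hE1 (D.dE' x k)
      · exact absurd k (Set.disjoint_left.1 nX hx)
      · exact absurd k (Set.disjoint_left.1 nX' hx)
      · exact absurd k (Set.disjoint_left.1 nT hx))
    let S : Set A := {a | (a : G) ∈ Ω}
    obtain ⟨i, hi', hS⟩ := ncard_of_mul_closed hsA (fun a => Subtype.ext (hsq a a.2)) (S := S) h1
      (fun a ha b hb hab => (htransfer True hd a ha b hb (fun e => hab (Subtype.ext e))).2 trivial)
    have hSc : S.ncard = Ω.ncard := by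
      rw [← Set.ncard_image_of_injective S Subtype.val_injective]
      congr 1
      ext x
      exact ⟨fun ⟨a, ha, e⟩ => e ▸ ha, fun hx => ⟨⟨x, hx.1⟩, hx, rfl⟩⟩
    rw [hSc, hcount] at hS
    interval_cases i <;> omega
  · -- no product of two is a third
    exfalso
    have hin : ∀ {S : Set G} {n : ℕ}, ((S ⊆ Ω ∧ (Ω ∩ S).ncard = n) ∨ (Disjoint Ω S ∧ (Ω ∩ S).ncard = 0)) →
        ∀ y ∈ Ω, y ∈ S → (Ω ∩ S).ncard = n := fun hv y hy hyS =>
      hv.elim And.right fun k => absurd hyS (Set.disjoint_left.1 k.1 hy)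
    have hcase : (D.X ⊆ Ω ∨ D.X' ⊆ Ω) ∧ ∀ x ∈ Ω, x ≠ d → d * x ∉ Ω := by
      refine ⟨?_, fun x hx hxd hdx => ?_⟩
      · rcases vX with kX | kX
        · exact Or.inl kX.1
        · refine Or.inr (vX'.elim And.left fun kX' => absurd kX'.2 ?_)
          have := kX.2
          rcases vE with ⟨-, e1⟩ | ⟨-, e1⟩ <;> rcases vE' with ⟨-, e2⟩ | ⟨-, e2⟩ <;>
            rcases vT with ⟨-, e5⟩ | ⟨-, e5⟩ <;> omega
      · have := D.cover x hx.1 (fun e => h1 (e ▸ hx)) hxd
        simp only [Set.mem_union] at this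
        rcases this with (((k | k) | k) | k) | k
        · have := hin vE x hx k; have := hin vE' _ hdx (D.dE x k); omega
        · have := hin vE' x hx k; have := hin vE _ hdx (D.dE' x k); omega
        · have := hin vX x hx k; have := hin vX' _ hdx (D.dX x k); omega
        · have := hin vX' x hx k; have := hin vX _ hdx (D.dX' x k); omega
        · have := hin vT x hx k; omega
    obtain ⟨hXX, hd⟩ := hcase
    rcases hXX with hX | hX
    · obtain ⟨p, hp, q, hq, hpq, hmem⟩ := D.triX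
      exact ((htransfer False (fun x hx hxd => iff_false_intro (hd x hx hxd))) p (hX hp) q (hX hq) hpq).1 (hX hmem)
    · obtain ⟨p, hp, q, hq, hpq, hmem⟩ := D.triX'
      exact ((htransfer False (fun x hx hxd => iff_false_intro (hd x hx hxd))) p (hX hp) q (hX hq) hpq).1 (hX hmem)
  · -- the complement generates a group fixing the set
    exfalso
    obtain ⟨W, W', hWd, hspan, hWsub, hW', hcomp⟩ : ∃ W W' : Set G, (∀ x ∈ W, d * x ∈ W') ∧ d ∈ Subgroup.closure W ∧
        (∀ x ∈ W, x ∈ A ∧ x ≠ 1 ∧ x ∉ Ω) ∧ W' ⊆ Ω ∧ ∀ x ∈ A, x ≠ 1 → x ∉ Ω → x ∈ W := by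
      have hsub : ∀ x ∈ D.E ∪ D.E', x ∈ A ∧ x ≠ 1 := fun x hx => by
        have := D.sub x (by simp only [Set.mem_union] at hx ⊢; tauto)
        exact ⟨this.1, this.2.1⟩
      have kT : D.T ⊆ Ω := vT.elim And.left fun k => absurd k.2 (by omega)
      have kX : D.X ⊆ Ω := vX.elim And.left fun k => absurd k.2 (by omega)
      have kX' : D.X' ⊆ Ω := vX'.elim And.left fun k => absurd k.2 (by omega)
      rcases vE with ⟨kE, e1⟩ | ⟨kE, e1⟩
      · have kE' : Disjoint Ω D.E' := vE'.elim (fun k => absurd k.2 (by omega)) And.left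
        refine ⟨D.E', D.E, D.dE', D.spanE', fun x hx => ⟨(hsub x (Or.inr hx)).1, (hsub x (Or.inr hx)).2,
          Set.disjoint_right.1 kE' hx⟩, kE, fun x hx hx1 hxΩ => ?_⟩
        have := D.cover x hx hx1 (fun e => hxΩ (e ▸ hdΩ))
        simp only [Set.mem_union] at this
        rcases this with (((k | k) | k) | k) | k
        exacts [absurd (kE k) hxΩ, k, absurd (kX k) hxΩ, absurd (kX' k) hxΩ, absurd (kT k) hxΩ]
      · have kE' : D.E' ⊆ Ω := vE'.elim And.left fun k => absurd k.2 (by omega)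
        refine ⟨D.E, D.E', D.dE, D.spanE, fun x hx => ⟨(hsub x (Or.inl hx)).1, (hsub x (Or.inl hx)).2,
          Set.disjoint_right.1 kE hx⟩, kE', fun x hx hx1 hxΩ => ?_⟩
        have := D.cover x hx hx1 (fun e => hxΩ (e ▸ hdΩ))
        simp only [Set.mem_union] at this
        rcases this with (((k | k) | k) | k) | k
        exacts [k, absurd (kE' k) hxΩ, absurd (kX k) hxΩ, absurd (kX' k) hxΩ, absurd (kT k) hxΩ]
    have hWinv : ∀ n ∈ Subgroup.normalizer (A : Set G), ∀ w ∈ W, n * w * n⁻¹ ∈ W := fun n hn w hw =>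
      hcomp _ ((Subgroup.mem_normalizer_iff.1 hn w).1 (hWsub w hw).1)
        (fun e => (hWsub w hw).2.1 (conj_eq_one_iff.1 e)) fun e => (hWsub w hw).2.2 (hinv' n hn w e)
    have hYW : ∀ y ∈ Ω, ∀ w ∈ W, y * w ∈ Ω := by
      intro y hy w hw
      obtain ⟨n, hn, rfl⟩ := hmove y hy
      have hw' : n⁻¹ * w * n ∈ W := by
        have := hWinv n⁻¹ (inv_mem hn) w hw
        rwa [inv_inv] at this
      have := hinv n hn _ (hW' (hWd _ hw'))
      rwa [show n * (d * (n⁻¹ * w * n)) * n⁻¹ = n * d * n⁻¹ * w by group] at this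
    have hcl : ∀ w ∈ Subgroup.closure W, ∀ y ∈ Ω, y * w ∈ Ω := by
      intro w hw
      induction hw using Subgroup.closure_induction with
      | mem w hw => exact fun y hy => hYW y hy w hw
      | one => intro y hy; rwa [mul_one]
      | mul u v _ _ hu hv => intro y hy; rw [← mul_assoc]; exact hv _ (hu y hy)
      | inv u hu' hu =>
        intro y hy
        have hmemA : u ∈ A := ((Subgroup.closure_le A).2 fun x hx => (hWsub x hx).1) hu'
        rw [inv_eq_of_mul_eq_one_left (hsq u hmemA)]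
        exact hu y hy
    have := hcl d hspan d hdΩ
    rw [hsq d D.mem] at this
    exact h1 this
  · exfalso
    obtain ⟨hpp, hp2, hord⟩ := prime_facts p hp
    haveI : Fact p.Prime := ⟨hpp⟩
    exact false_of_prime φ.range.subtype Subtype.val_injective hp2 hsA hord
      (hM ▸ hcount ▸ hdvd.mul_right _)
  · exfalso
    haveI : Fact (Nat.Prime 23) := ⟨by norm_num⟩
    refine false_of_sylow φ.range.subtype Subtype.val_injective (n := 11) (p := 23) (by norm_num) hsA
      (by intro i hi hi'; interval_cases i <;> norm_num) (M0 := 12 * (147840 * 3 ^ j)) ?_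
      (sylow_facts j hj).1.1 (sylow_facts j hj).1.2
    rw [hM, hcount, h]; ring
  · exfalso
    rcases (sylow_facts j hj).2 with ⟨k1, k2⟩ | ⟨k1, k2⟩
    · haveI : Fact (Nat.Prime 89) := ⟨by norm_num⟩
      refine false_of_sylow φ.range.subtype Subtype.val_injective (n := 11) (p := 89) (by norm_num) hsA
        (by intro i hi hi'; interval_cases i <;> norm_num) (M0 := 23 * (147840 * 3 ^ j)) ?_ k1 k2
      rw [hM, hcount, h]; ring
    · haveI : Fact (Nat.Prime 23) := ⟨by norm_num⟩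
      refine false_of_sylow φ.range.subtype Subtype.val_injective (n := 11) (p := 23) (by norm_num) hsA
        (by intro i hi hi'; interval_cases i <;> norm_num) (M0 := 89 * (147840 * 3 ^ j)) ?_ k1 k2
      rw [hM, hcount, h]; ring

end CfsgLib.Fischer.ThompsonOrbit
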