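import Mathlib
import Cfsg.Prelude.Def_Transfer

/-!
Counting the orbit of an element in an elementary abelian subgroup that is the largest one of its
centralizer: fusion is controlled by the normalizer, and orbit lengths are restricted by the
normalizers of subgroups of prime order without fixed points.
-/

set_option autoImplicit false
set_option linter.style.haveILetI false

namespace CfsgLib.Fischer.ThompsonOrbit

variable {G : Type*} [Group G]

/-- If every elementary abelian subgroup of `C(d)` at least as large as `A` is conjugate to `A`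
inside `C(d)`, the normalizer of `A` moves `d` to each of its conjugates in `A`. -/
theorem exists_normalizer_move [Finite G] {d : G} {A : Subgroup G}
    (hA : Cfsg.IsElementaryAbelian 2 A)
    (hmax : ∀ E : Subgroup G, Cfsg.IsElementaryAbelian 2 E → E ≤ Subgroup.centralizer ({d} : Set G) →
      Nat.card A ≤ Nat.card E → ∃ c ∈ Subgroup.centralizer ({d} : Set G), E = A.map (MulAut.conj c).toMonoidHom)
    {x : G} (hx : x ∈ A) (hc : IsConj d x) : ∃ n ∈ Subgroup.normalizer (A : Set G), n * d * n⁻¹ = x := by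
  obtain ⟨g, rfl⟩ := isConj_iff.1 hc
  obtain ⟨hcom, hexp⟩ := hA
  let E : Subgroup G := A.map (MulAut.conj g⁻¹).toMonoidHom
  have hmem : ∀ y, y ∈ E ↔ g * y * g⁻¹ ∈ A := fun y => by
    rw [Subgroup.mem_map_equiv, show ((MulAut.conj g⁻¹ : MulAut G)).symm y = g * y * g⁻¹ by
      simp [MulAut.conj_symm_apply, mul_assoc]]
  have hE : Cfsg.IsElementaryAbelian 2 E := by
    refine ⟨⟨⟨fun a b => Subtype.ext ?_⟩⟩, fun a ha => ?_⟩
    · obtain ⟨u, hu, hue⟩ := a.2
      obtain ⟨v, hv, hve⟩ := b.2
      show (a : G) * b = b * a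
      rw [← hue, ← hve, ← map_mul, ← map_mul]
      exact congrArg _ (congrArg Subtype.val (hcom.1.comm ⟨u, hu⟩ ⟨v, hv⟩))
    · obtain ⟨u, hu, rfl⟩ := ha
      rw [← map_pow, hexp u hu, map_one]
  have hcard : Nat.card E = Nat.card A :=
    Subgroup.card_map_of_injective (MulAut.conj g⁻¹).injective
  obtain ⟨c, hcC, hcE⟩ := hmax E hE (fun y hy => Subgroup.mem_centralizer_singleton_iff.2 (by
    have h1 : (g * y * g⁻¹) * (g * d * g⁻¹) = (g * d * g⁻¹) * (g * y * g⁻¹) :=
      congrArg Subtype.val (hcom.1.comm ⟨_, (hmem y).1 hy⟩ ⟨_, hx⟩)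
    calc y * d = g⁻¹ * ((g * y * g⁻¹) * (g * d * g⁻¹)) * g := by group
      _ = d * y := by rw [h1]; group)) hcard.ge
  refine ⟨g * c, Subgroup.mem_normalizer_iff.2 fun y => ?_, ?_⟩
  · have e1 : c * y * c⁻¹ ∈ E ↔ y ∈ A := by
      rw [hcE, Subgroup.mem_map_equiv]
      simp [MulAut.conj_symm_apply, mul_assoc]
    rw [← e1, hmem]
    group
  · rw [Subgroup.mem_centralizer_singleton_iff] at hcC
    calc g * c * d * (g * c)⁻¹ = g * (c * d) * c⁻¹ * g⁻¹ := by group
      _ = g * d * g⁻¹ := by rw [hcC]; group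

/-- Transitivity on the conjugates. -/
theorem exists_normalizer_move₂ [Finite G] {d : G} {A : Subgroup G}
    (hA : Cfsg.IsElementaryAbelian 2 A)
    (hmax : ∀ E : Subgroup G, Cfsg.IsElementaryAbelian 2 E → E ≤ Subgroup.centralizer ({d} : Set G) →
      Nat.card A ≤ Nat.card E → ∃ c ∈ Subgroup.centralizer ({d} : Set G), E = A.map (MulAut.conj c).toMonoidHom)
    {x y : G} (hx : x ∈ A) (hy : y ∈ A) (hcx : IsConj d x) (hcy : IsConj d y) :
    ∃ n ∈ Subgroup.normalizer (A : Set G), n * x * n⁻¹ = y := by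
  obtain ⟨n, hn, rfl⟩ := exists_normalizer_move hA hmax hx hcx
  obtain ⟨m, hm, rfl⟩ := exists_normalizer_move hA hmax hy hcy
  exact ⟨m * n⁻¹, mul_mem hm (inv_mem hn), by group⟩

/-- A subgroup of prime order acting faithfully with no proper invariant subgroup restricts the
order of its normalizer, hence the order of the group. -/
theorem false_of_sylow {M A : Type*} [Group M] [Finite M] [Group A] [Finite A] (φ : M →* MulAut A)
    (hφ : Function.Injective φ) {n p M0 : ℕ} [hp : Fact p.Prime] (hp2 : p ≠ 2) (hA : Nat.card A = 2 ^ n)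
    (hord : ∀ j, 0 < j → j < n → ¬ p ∣ 2 ^ j - 1) (hM : Nat.card M = p * M0) (hnd : ¬ p ∣ M0)
    (hnum : ∀ k ∈ Nat.divisors ((2 ^ n - 1) / p * (p - 1)), k ∣ M0 → (M0 / k) % p ≠ 1) : False := by
  classical
  obtain ⟨P⟩ : Nonempty (Sylow p M) := inferInstance
  have hP : Nat.card (P : Subgroup M) = p := by
    rw [P.card_eq_multiplicity, hM]
    have hM0 : M0 ≠ 0 := fun h => hnd (h ▸ dvd_zero p)
    rw [Nat.factorization_mul hp.out.ne_zero hM0, Finsupp.add_apply, hp.out.factorization_self,
      Nat.factorization_eq_zero_of_not_dvd hnd, add_zero, pow_one]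
  have hPp : IsPGroup p (P : Subgroup M) := P.isPGroup'
  have hn0 : n ≠ 0 := by
    intro h
    rw [h, pow_zero] at hA
    have : Subsingleton A := (Nat.card_eq_one_iff_unique.1 hA).1
    have hsub : Subsingleton (MulAut A) := ⟨fun a b => MulEquiv.ext fun x => Subsingleton.elim _ _⟩
    have h1 : Subsingleton M := hφ.subsingleton
    have h2 : Nat.card M = 1 := Nat.card_of_subsingleton 1
    rw [hM] at h2
    exact hp.out.ne_one (Nat.eq_one_of_mul_eq_one_right h2)
  have h2n : (2 ^ n : ℕ) - 1 ≠ 0 := by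
    have := Nat.one_lt_two_pow hn0
    omega
  -- fixed points of the elements of a set of automorphisms
  let fix : M → Subgroup A := fun m =>
    { carrier := {a | φ m a = a}
      one_mem' := map_one _
      mul_mem' := fun {a b} ha hb => by
        show φ m (a * b) = a * b
        rw [map_mul, show φ m a = a from ha, show φ m b = b from hb]
      inv_mem' := fun {a} ha => by
        show φ m a⁻¹ = a⁻¹
        rw [map_inv, show φ m a = a from ha] }
  have hmod : ∀ B : Subgroup A, (∀ m ∈ (P : Subgroup M), ∀ a ∈ B, φ m a ∈ B) →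
      Nat.card B ≡ Nat.card ↥(B ⊓ ⨅ m : (P : Subgroup M), fix m) [MOD p] := by
    intro B hB
    let act : MulAction (P : Subgroup M) B :=
      { smul := fun m a => ⟨φ m a, hB m m.2 a a.2⟩
        one_smul := fun a => Subtype.ext (by
          show φ ((1 : (P : Subgroup M)) : M) (a : A) = a
          simp)
        mul_smul := fun m k a => Subtype.ext (by
          show φ ((m * k : (P : Subgroup M)) : M) (a : A) = φ m (φ k a)
          simp) }
    letI := act
    have e : Nat.card (MulAction.fixedPoints (P : Subgroup M) B) =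
        Nat.card ↥(B ⊓ ⨅ m : (P : Subgroup M), fix m) := Nat.card_congr
      { toFun := fun a => ⟨a.1.1, a.1.2, Subgroup.mem_iInf.2 fun m => congrArg Subtype.val (a.2 m)⟩
        invFun := fun a => ⟨⟨a.1, a.2.1⟩, fun m => Subtype.ext (Subgroup.mem_iInf.1 a.2.2 m)⟩
        left_inv := fun a => rfl
        right_inv := fun a => rfl }
    rw [← e]
    exact hPp.card_modEq_card_fixedPoints B
  have hsub : ∀ B : Subgroup A, ∃ j ≤ n, Nat.card B = 2 ^ j := fun B =>
    (Nat.dvd_prime_pow Nat.prime_two).1 (hA ▸ Subgroup.card_subgroup_dvd_card B)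
  have hstep : ∀ {i j : ℕ}, i ≤ j → j ≤ n → 2 ^ j ≡ 2 ^ i [MOD p] → i = j ∨ (i = 0 ∧ j = n) := by
    intro i j hij hjn h
    obtain ⟨k, rfl⟩ := Nat.exists_eq_add_of_le hij
    rcases Nat.eq_zero_or_pos k with hk | hk
    · left; omega
    · right
      have h' := (Nat.modEq_iff_dvd' (Nat.pow_le_pow_right (by norm_num) (by omega))).1 h.symm
      rw [pow_add, show 2 ^ i * 2 ^ k - 2 ^ i = 2 ^ i * (2 ^ k - 1) by rw [Nat.mul_sub, mul_one]] at h'
      rcases hp.out.dvd_mul.1 h' with h'' | h''
      · exact absurd ((Nat.prime_dvd_prime_iff_eq hp.out Nat.prime_two).1 (hp.out.dvd_of_dvd_pow h'')) hp2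
      · have : ¬ k < n := fun hkn => hord k hk hkn h''
        omega
  have hinj : ∀ m : M, (∀ a, φ m a = a) → m = 1 := fun m hm =>
    hφ ((MulEquiv.ext fun a => by rw [hm a, map_one, MulAut.one_apply]) : φ m = φ 1)
  obtain ⟨i, hi, hFi⟩ := hsub (⨅ m : (P : Subgroup M), fix m)
  -- the fixed points of the subgroup are trivial
  have hbot : (⨅ m : (P : Subgroup M), fix m) = ⊥ := by
    have h := hmod ⊤ (fun m _ a _ => Subgroup.mem_top _)
    rw [top_inf_eq, Subgroup.card_top, hA, hFi] at h
    rcases hstep hi le_rfl h with h' | ⟨h', -⟩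
    · exfalso
      have htop : (⨅ m : (P : Subgroup M), fix m) = ⊤ := Subgroup.eq_top_of_card_eq _ (by rw [hFi, h', hA])
      have hone : ∀ m ∈ (P : Subgroup M), m = 1 := fun m hm => hinj m fun a =>
        Subgroup.mem_iInf.1 (htop ▸ Subgroup.mem_top a) ⟨m, hm⟩
      have : (P : Subgroup M) = ⊥ := (Subgroup.eq_bot_iff_forall _).2 hone
      rw [this, Subgroup.card_bot] at hP
      exact hp.out.ne_one hP.symm
    · exact Subgroup.eq_bot_of_card_eq _ (by rw [hFi, h', pow_zero])
  have hinv : ∀ B : Subgroup A, (∀ m ∈ (P : Subgroup M), ∀ a ∈ B, φ m a ∈ B) → B = ⊥ ∨ B = ⊤ := by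
    intro B hB
    have h := hmod B hB
    rw [hbot, inf_bot_eq, Subgroup.card_bot] at h
    obtain ⟨j, hj, hBj⟩ := hsub B
    rw [hBj, ← pow_zero 2] at h
    rcases hstep (Nat.zero_le j) hj h with h' | ⟨-, h'⟩
    · exact Or.inl (Subgroup.eq_bot_of_card_eq _ (by rw [hBj, ← h', pow_zero]))
    · exact Or.inr (Subgroup.eq_top_of_card_eq _ (by rw [hBj, h', hA]))
  -- the centralizer acts semiregularly
  let C := Subgroup.centralizer ((P : Subgroup M) : Set M)
  have hfree : ∀ c ∈ C, ∀ a : A, a ≠ 1 → φ c a = a → c = 1 := by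
    intro c hc a ha hca
    rcases hinv (fix c) (fun m hm b hb => by
      show φ c (φ m b) = φ m b
      rw [← MulAut.mul_apply, ← map_mul, ← Subgroup.mem_centralizer_iff.1 hc m hm, map_mul, MulAut.mul_apply,
        show φ c b = b from hb]) with h | h
    · exact absurd ((Subgroup.eq_bot_iff_forall _).1 h a hca) ha
    · exact hinj c fun b => (h ▸ Subgroup.mem_top b : b ∈ fix c)
  have hCdvd : Nat.card C ∣ 2 ^ n - 1 := by
    let act : MulAction C {a : A // a ≠ 1} :=
      { smul := fun c a => ⟨φ c a, fun h => a.2 (by simpa using congrArg (φ c).symm h)⟩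
        one_smul := fun a => Subtype.ext (by
          show φ ((1 : C) : M) (a : A) = a
          simp)
        mul_smul := fun m k a => Subtype.ext (by
          show φ ((m * k : C) : M) (a : A) = φ m (φ k a)
          simp) }
    letI := act
    have hst : ∀ a : {a : A // a ≠ 1}, MulAction.stabilizer C a = ⊥ := fun a =>
      (Subgroup.eq_bot_iff_forall _).2 fun c hc => Subtype.ext (hfree c c.2 a a.2 (congrArg Subtype.val hc))
    have := Fintype.ofFinite (Quotient (MulAction.orbitRel C {a : A // a ≠ 1}))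
    have e := Nat.card_congr (MulAction.selfEquivSigmaOrbitsQuotientStabilizer C {a : A // a ≠ 1})
    rw [Nat.card_sigma] at e
    have hpart : ∀ ω : Quotient (MulAction.orbitRel C {a : A // a ≠ 1}), Nat.card (C ⧸ MulAction.stabilizer C (Quotient.out ω : {a : A // a ≠ 1})) = Nat.card C :=
      fun ω => by
        have hs := Subgroup.card_eq_card_quotient_mul_card_subgroup (MulAction.stabilizer C (Quotient.out ω : {a : A // a ≠ 1}))
        rw [hst, Subgroup.card_bot, mul_one] at hs
        rw [hst]; exact hs.symm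
    simp only [hpart, Finset.sum_const, smul_eq_mul] at e
    have hc1 : Nat.card {a : A // a ≠ 1} = 2 ^ n - 1 := by
      have := Fintype.ofFinite A
      rw [Nat.card_eq_fintype_card, Fintype.card_subtype_compl, Fintype.card_subtype_eq, ← Nat.card_eq_fintype_card, hA]
    exact ⟨_, (hc1.symm.trans e).trans (mul_comm _ _)⟩
  -- the normalizer
  have : IsCyclic (P : Subgroup M) := isCyclic_of_prime_card hP
  have hNdvd : Nat.card (Subgroup.normalizer ((P : Subgroup M) : Set M)) ∣ (2 ^ n - 1) * (p - 1) := by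
    let ψ := Subgroup.normalizerMonoidHom (P : Subgroup M)
    have h1 := Subgroup.card_eq_card_quotient_mul_card_subgroup ψ.ker
    have h2 : Nat.card ψ.ker = Nat.card C := by
      rw [Subgroup.normalizerMonoidHom_ker]
      exact Nat.card_congr (Subgroup.subgroupOfEquivOfLe (fun c hc => Subgroup.mem_normalizer_iff.2 fun y => by
        constructor
        · intro hy; rw [← Subgroup.mem_centralizer_iff.1 hc y hy, mul_inv_cancel_right]; exact hy
        · intro hy
          have e := Subgroup.mem_centralizer_iff.1 hc _ hy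
          rw [show c * y * c⁻¹ * c = c * y by group] at e
          rwa [← mul_left_cancel e] at hy)).toEquiv
    have h3 : Nat.card ψ.range ∣ p - 1 := by
      have := Subgroup.card_subgroup_dvd_card ψ.range
      rwa [IsCyclic.card_mulAut, hP, Nat.totient_prime hp.out] at this
    rw [← Nat.card_congr (QuotientGroup.quotientKerEquivRange ψ).toEquiv] at h3
    rw [h1, h2, mul_comm]
    exact mul_dvd_mul hCdvd h3
  have hPN : p ∣ Nat.card (Subgroup.normalizer ((P : Subgroup M) : Set M)) :=
    (dvd_of_eq hP.symm).trans (Subgroup.card_dvd_of_le Subgroup.le_normalizer)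
  have hPC : p ∣ 2 ^ n - 1 := ((dvd_of_eq hP.symm).trans (Subgroup.card_dvd_of_le (show (P : Subgroup M) ≤ C from fun x hx =>
    Subgroup.mem_centralizer_iff.2 fun y hy => congrArg Subtype.val
      ((IsCyclic.commGroup (α := (P : Subgroup M))).mul_comm ⟨y, hy⟩ ⟨x, hx⟩)))).trans hCdvd
  obtain ⟨k, hk⟩ := hPN
  have hidx := (Subgroup.normalizer ((P : Subgroup M) : Set M)).card_mul_index
  rw [hk, hM, mul_assoc, Nat.mul_right_inj hp.out.ne_zero] at hidx
  have hk0 : 0 < k := by
    rcases Nat.eq_zero_or_pos k with h | h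
    · exact absurd (by simpa [h] using hidx.symm : M0 = 0) (fun h0 => hnd (h0 ▸ dvd_zero p))
    · exact h
  refine hnum k (Nat.mem_divisors.2 ⟨?_, ?_⟩) ⟨_, hidx.symm⟩ ?_
  · obtain ⟨q, hq⟩ := hPC
    rw [hk, hq, mul_assoc] at hNdvd
    rw [hq, Nat.mul_div_cancel_left _ hp.out.pos]
    exact Nat.dvd_of_mul_dvd_mul_left hp.out.pos hNdvd
  · intro h0
    rcases Nat.mul_eq_zero.1 h0 with h | h
    · obtain ⟨q, hq⟩ := hPC
      rw [hq, Nat.mul_div_cancel_left _ hp.out.pos] at h
      rw [h, mul_zero] at hq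
      exact h2n hq
    · have := hp.out.two_le
      omega
  · rw [← hidx, Nat.mul_div_cancel_left _ hk0]
    have h := card_sylow_modEq_one p M
    rw [P.card_eq_index_normalizer] at h
    rw [Nat.ModEq, Nat.one_mod_eq_one.2 hp.out.ne_one] at h
    exact h

/-- A set closed under the products of its distinct members, with the identity, is a subgroup: so
its size is one less than a power of two. -/
theorem ncard_of_mul_closed {A : Type*} [Group A] [Finite A] {n : ℕ} (hA : Nat.card A = 2 ^ n)
    (hsq : ∀ a : A, a * a = 1) {S : Set A} (h1 : (1 : A) ∉ S)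
    (hS : ∀ a ∈ S, ∀ b ∈ S, a ≠ b → a * b ∈ S) : ∃ j ≤ n, S.ncard + 1 = 2 ^ j := by
  let B : Subgroup A :=
    { carrier := insert 1 S
      one_mem' := Set.mem_insert _ _
      mul_mem' := fun {a b} ha hb => by
        rcases Set.mem_insert_iff.1 ha with rfl | ha'
        · rwa [one_mul]
        rcases Set.mem_insert_iff.1 hb with rfl | hb'
        · rwa [mul_one]
        by_cases hab : a = b
        · rw [hab, hsq]; exact Set.mem_insert _ _
        · exact Set.mem_insert_of_mem _ (hS a ha' b hb' hab)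
      inv_mem' := fun {a} ha => by rwa [inv_eq_of_mul_eq_one_right (hsq a)] }
  obtain ⟨j, hj, hB⟩ := (Nat.dvd_prime_pow Nat.prime_two).1 (hA ▸ Subgroup.card_subgroup_dvd_card B)
  refine ⟨j, hj, ?_⟩
  rw [← hB, ← Set.ncard_insert_of_notMem h1]
  exact (Nat.card_coe_set_eq _).symm

end CfsgLib.Fischer.ThompsonOrbit
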